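import Cfsg.Agent.H985.VZ.Defs
import Cfsg.Agent.H53.HC.Rgd

/-!
# S4842, Harish-Chandra toolkit: supports (section 1 of tools/plans/S4842_hc.md)

`V` an irreducible representation of a group with root group datum, `V^H = fx ρ H`.

* `iSup_map_eq_top` : the translates of a nonzero subspace span `V`;
* `not_notJ` : the roots of `J` mapped into `Φ_K` by a minimal double coset representative;
* `exists_min_rep₂` : `G = ⋃ P_K n_w P_J`, `w` minimal in `W_K w W_J`;
* `av_eq_zero` : a Mackey type vanishing;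
* `exists_of_support`, `VU_ne_bot`.
-/

set_option autoImplicit false
set_option linter.unusedSectionVars false

open Cfsg

namespace Cfsg.Agent.H985.VZ

open CoxeterSystem Cfsg.Agent.ChevalleyStructure.CoxeterGeom Cfsg.Agent.Tits.Roots Cfsg.Agent.Tits.Core
  Cfsg.Agent.Tits.Exchange Cfsg.Agent.Nodes.Reps Cfsg.Agent.Nodes.BNOf Cfsg.Agent.Nodes.StabComb
  Cfsg.Agent.Nodes.Bruhat Cfsg.Agent.Nodes.OppDec Cfsg.Agent.Nodes.LeviDec Module

universe u v

section rep

variable {Y : Type u} [Group Y] {V : Type v} [AddCommGroup V] [Module ℂ V] {ρ : Representation ℂ Y V}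

/-- An invariant subspace of an irreducible representation. -/
theorem eq_bot_or_eq_top_of_irr (hρ : ρ.IsIrreducible) {S : Submodule ℂ V} (hS : ∀ g, ∀ v ∈ S, ρ g v ∈ S) :
    S = ⊥ ∨ S = ⊤ := by
  have : IsSimpleOrder (Subrepresentation ρ) := hρ
  let S' : Subrepresentation ρ := ⟨S, fun g v hv => hS g v hv⟩
  rcases IsSimpleOrder.eq_bot_or_eq_top S' with h | h
  · left
    exact congrArg Subrepresentation.toSubmodule h
  · right
    exact congrArg Subrepresentation.toSubmodule h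

/-- The translates of a nonzero subspace span an irreducible representation. -/
theorem iSup_map_eq_top (hρ : ρ.IsIrreducible) {S : Submodule ℂ V} (h0 : S ≠ ⊥) :
    (⨆ g : Y, S.map (ρ g)) = ⊤ := by
  refine (eq_bot_or_eq_top_of_irr hρ (S := ⨆ g : Y, S.map (ρ g)) fun g v hv => ?_).resolve_left fun hb => ?_
  · induction hv using Submodule.iSup_induction' with
    | mem k v hv =>
      obtain ⟨w, hw, rfl⟩ := hv
      refine Submodule.mem_iSup_of_mem (g * k) ⟨w, hw, ?_⟩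
      rw [map_mul]
      rfl
    | zero => rw [map_zero]; exact zero_mem _
    | add x y _ _ hx hy => rw [map_add]; exact add_mem hx hy
  · apply h0
    rw [eq_bot_iff, ← hb]
    intro v hv
    exact Submodule.mem_iSup_of_mem (1 : Y) ⟨v, hv, by rw [map_one]; rfl⟩

variable [Finite Y]

theorem av_av_of_le {H K : Subgroup Y} (h : K ≤ H) (v : V) : av ρ H (av ρ K v) = av ρ H v := by
  classical
  let _ : Fintype K := Fintype.ofFinite K
  rw [av_apply ρ K, map_smul, map_sum, Finset.sum_congr rfl fun x _ => av_rho ρ (h x.2) v, Finset.sum_const,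
    Finset.card_univ, ← Nat.card_eq_fintype_card, ← Nat.cast_smul_eq_nsmul ℂ, smul_smul, inv_mul_cancel₀ (card_ne K),
    one_smul]

/-- `H` normalises `N`: `V^N` is stable under `av ρ H`. -/
theorem av_mem_fx {H N : Subgroup Y} (hn : H ≤ Subgroup.normalizer (N : Set Y)) {v : V} (hv : v ∈ fx ρ N) :
    av ρ H v ∈ fx ρ N := by
  classical
  let _ : Fintype H := Fintype.ofFinite H
  rw [av_apply]
  refine Submodule.smul_mem _ _ (Submodule.sum_mem _ fun x _ => ?_)
  intro k hk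
  have h1 : (x : Y)⁻¹ * k * x ∈ N := by
    have := (Subgroup.mem_normalizer_iff.1 (inv_mem (hn x.2)) k).1 hk
    rwa [inv_inv] at this
  have h2 := hv _ h1
  rw [← Module.End.mul_apply, ← map_mul]
  have e : k * (x : Y) = x * ((x : Y)⁻¹ * k * x) := by group
  rw [e, map_mul, Module.End.mul_apply, h2]

theorem rho_mem_fx {N : Subgroup Y} {g : Y} (hn : g ∈ Subgroup.normalizer (N : Set Y)) {v : V} (hv : v ∈ fx ρ N) :
    ρ g v ∈ fx ρ N := by
  intro k hk
  have h1 : g⁻¹ * k * g ∈ N := by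
    have := (Subgroup.mem_normalizer_iff.1 (inv_mem hn) k).1 hk
    rwa [inv_inv] at this
  have h2 := hv _ h1
  rw [← Module.End.mul_apply, ← map_mul]
  have e : k * g = g * (g⁻¹ * k * g) := by group
  rw [e, map_mul, Module.End.mul_apply, h2]

/-- `g H g⁻¹ ≤ K`, `av ρ H v = 0`: then `av ρ K (ρ g v) = 0`. -/
theorem av_rho_eq_zero {H K : Subgroup Y} {g : Y} (h : ∀ x ∈ H, g * x * g⁻¹ ∈ K) {v : V} (hv : av ρ H v = 0) :
    av ρ K (ρ g v) = 0 := by
  have h1 : H.map (MulAut.conj g).toMonoidHom ≤ K := by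
    rintro _ ⟨x, hx, rfl⟩
    exact h x hx
  rw [← av_av_of_le h1, ← rho_av_conj ρ (H := H) (g := g), hv, map_zero, map_zero]
  intro x
  constructor
  · intro hx
    exact ⟨x, hx, rfl⟩
  · rintro ⟨y, hy, e⟩
    have : y = x := (MulAut.conj g).injective e
    rwa [← this]

end rep

section rgd

variable {I W : Type*} {Y : Type u} [Fintype I] [DecidableEq I] [Group W] [Group Y] {M : CoxeterMatrix I}
  {cs : CoxeterSystem M W} {A : I → I → ℤ} {h : IsCartan M A} {p : ℕ} {T : Subgroup Y} {n : I → Y}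
  {X : (I → ℤ) → Subgroup Y}

/-- `w` maps the simple roots of `J` to positive roots, `w⁻¹` those of `K`: a positive root of `J` involving a simple
root which is not mapped to a simple root of `K` is mapped to a root outside `K`. -/
theorem rep_mem_NotJ {J K : Set I} {w : W} (h1 : ∀ k ∈ K, 0 ≤ rep cs h w⁻¹ (sr k)) (h2 : ∀ j ∈ J, 0 ≤ rep cs h w (sr j))
    {x : I → ℤ} (hx : x ∈ PosJ cs h J) {i : I} (hi : ¬ ∃ k ∈ K, rep cs h w (sr i) = sr k) (hxi : 0 < x i) :
    rep cs h w x ∈ NotJ cs h K := by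
  have hiJ : i ∈ J := by
    by_contra hiJ
    rw [hx.2.2 i hiJ] at hxi
    exact lt_irrefl _ hxi
  have h0 := H53.HC.rep_nonneg_of_supp h2 hx.2.1 hx.2.2
  refine ⟨hx.1.act w, h0, ?_⟩
  by_contra hcon
  push Not at hcon
  apply hi
  have hz : ∀ k, k ∉ K → rep cs h w (sr i) k = 0 := by
    intro k hk
    have h3 := H53.HC.rep_apply_ge h2 hx.2.1 hx.2.2 i k
    have h4 := hcon k hk
    have h5 := h2 i hiJ k
    have h6 : x i * rep cs h w (sr i) k ≤ 0 := h3.trans h4
    have h7 : rep cs h w (sr i) k ≤ 0 := by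
      by_contra h8
      push Not at h8
      have := mul_pos hxi h8
      linarith
    exact le_antisymm h7 h5
  have h3 := H53.HC.ht_le_rep h1 (h2 i hiJ) hz
  rw [← rep_mul_apply, inv_mul_cancel, map_one, Module.End.one_apply] at h3
  have h4 : ht (sr i : I → ℤ) = 1 := by
    unfold ht sr
    simp
  rw [h4] at h3
  obtain ⟨k, hk, hk0⟩ := H53.HC.eq_sr_of_ht ((isRoot_sr cs h i).act w) (h2 i hiJ) h3
  refine ⟨k, ?_, hk⟩
  by_contra hkK
  rw [hz k hkK] at hk0
  exact lt_irrefl _ hk0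

/-- the part of `V_{J'}` inside `L_J`, `J' ⊆ J` -/
def VL (cs : CoxeterSystem M W) {A : I → I → ℤ} (h : IsCartan M A) (X : (I → ℤ) → Subgroup Y) (J J' : Set I) :
    Subgroup Y := RGD.Sup X {x | x ∈ PosJ cs h J ∧ x ∈ NotJ cs h J'}

theorem VL_le_LJ {J J' : Set I} : VL cs h X J J' ≤ LJ cs h T X J :=
  RGD.Sup_le fun _ hx => X_le_LJ (PosJ_subset J hx.1)

theorem VJ_le_VL_sup {J J' : Set I} : VJ cs h X J' ≤ VL cs h X J J' ⊔ VJ cs h X J := by
  refine RGD.Sup_le fun x hx => ?_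
  rcases mem_PosJ_or_NotJ J hx.1 hx.2.1 with h1 | h1
  · exact le_trans (RGD.le_Sup (S := {x | x ∈ PosJ cs h J ∧ x ∈ NotJ cs h J'}) ⟨h1, hx⟩) le_sup_left
  · exact le_trans (RGD.le_Sup h1) le_sup_right

variable (R : RGD cs h p T n X)

include R

/-- Every element is `a g b` with `a ∈ P_K`, `b ∈ P_J` and `g` over an element minimal in its double coset. -/
theorem exists_min_rep₂ [Finite W] (hG : GG cs h T X = ⊤) (K J : Set I) (x : Y) :
    ∃ a ∈ PJ cs h T X K, ∃ b ∈ PJ cs h T X J, ∃ w g, Rp cs R.nsys w g ∧ x = a * g * b ∧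
      (∀ i ∈ K, 0 ≤ rep cs h w⁻¹ (sr i)) ∧ ∀ i ∈ J, 0 ≤ rep cs h w (sr i) := by
  classical
  have hex : ∃ m : ℕ, ∃ w, cs.length w = m ∧ ∃ a ∈ PJ cs h T X K, ∃ b ∈ PJ cs h T X J, ∃ g,
      Rp cs R.nsys w g ∧ x = a * g * b := by
    obtain ⟨w, b₁, hb₁, k, hk, b₂, hb₂, e⟩ := (mem_GG R).1 (show x ∈ GG cs h T X by rw [hG]; exact Subgroup.mem_top x)
    exact ⟨_, w, rfl, b₁, B_le_PJ hb₁, b₂, B_le_PJ hb₂, k, hk, e⟩
  obtain ⟨w, hw, a, ha, b, hb, g, hg, e⟩ := Nat.find_spec hex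
  have hmin := fun m hm => Nat.find_min hex (m := m) hm
  have hmin' : ∀ v, (∃ a ∈ PJ cs h T X K, ∃ b ∈ PJ cs h T X J, ∃ g, Rp cs R.nsys v g ∧ x = a * g * b) →
      cs.length w ≤ cs.length v := by
    intro v hv
    rw [hw]
    by_contra hcon
    exact hmin _ (not_le.1 hcon) ⟨v, rfl, hv⟩
  refine ⟨a, ha, b, hb, w, g, hg, e, ?_, ?_⟩
  · intro i hi
    refine nonneg_of_lt cs h w⁻¹ i ?_
    rw [cs.length_inv, ← cs.length_inv (w⁻¹ * cs.simple i), mul_inv_rev, inv_inv, cs.inv_simple]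
    have h1 := hmin' (cs.simple i * w) ⟨a * (n i)⁻¹, mul_mem ha (inv_mem (LJ_le_PJ (n_mem_LJ R hi))), b, hb,
      n i * g, (rp_simple cs R.nsys i).mul hg, by rw [e]; group⟩
    have h2 := cs.length_simple_mul w i
    omega
  · intro i hi
    refine nonneg_of_lt cs h w i ?_
    have h1 := hmin' (w * cs.simple i) ⟨a, ha, (n i)⁻¹ * b, mul_mem (inv_mem (LJ_le_PJ (n_mem_LJ R hi))) hb,
      g * n i, hg.mul (rp_simple cs R.nsys i), by rw [e]; group⟩
    have h2 := cs.length_mul_simple w i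
    omega

variable {V : Type v} [AddCommGroup V] [Module ℂ V] {ρ : Representation ℂ Y V} [Finite Y]

/-- `V^{V_J}` is killed by the average over `V_J' ∩ L_J` if `V^{V_J'} = 0`. -/
theorem av_VL_eq_zero {J J' : Set I} (h0 : fx ρ (VJ cs h X J') = ⊥) {v : V} (hv : v ∈ fx ρ (VJ cs h X J)) :
    av ρ (VL cs h X J J') v = 0 := by
  have h1 : av ρ (VL cs h X J J') v ∈ fx ρ (VJ cs h X J) :=
    av_mem_fx (le_trans (VL_le_LJ (T := T)) (LJ_le_normalizer_VJ R J)) hv
  have h2 := fx_sup (av_mem ρ (VL cs h X J J') v) h1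
  have h3 := fx_mono (ρ := ρ) VJ_le_VL_sup h2
  rwa [h0, Submodule.mem_bot] at h3

/-- The Mackey type vanishing. -/
theorem av_eq_zero {J K : Set I} {w : W} {g : Y} (hg : Rp cs R.nsys w g) (h1 : ∀ k ∈ K, 0 ≤ rep cs h w⁻¹ (sr k))
    (h2 : ∀ j ∈ J, 0 ≤ rep cs h w (sr j)) (h0 : fx ρ (VJ cs h X {j | j ∈ J ∧ ∃ k ∈ K, rep cs h w (sr j) = sr k}) = ⊥)
    {v : V} (hv : v ∈ fx ρ (VJ cs h X J)) : av ρ (VJ cs h X K) (ρ g v) = 0 := by
  refine av_rho_eq_zero ?_ (av_VL_eq_zero R h0 hv)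
  refine fun x hx => conj_mem_Sup R hg (fun x hx => hx.1.1) ?_ hx
  rintro x ⟨hx, -, -, i, hi, hxi⟩
  refine rep_mem_NotJ h1 h2 hx (i := i) (fun hik => hi ⟨?_, hik⟩) hxi
  by_contra hiJ
  rw [hx.2.2 i hiJ] at hxi
  exact lt_irrefl _ hxi

/-- **Supports.** -/
theorem exists_of_support [Finite W] (hG : GG cs h T X = ⊤) (hρ : ρ.IsIrreducible) {J K : Set I}
    (hJ : fx ρ (VJ cs h X J) ≠ ⊥) (hmin : ∀ J' : Set I, J' ⊂ J → fx ρ (VJ cs h X J') = ⊥)
    (hK : fx ρ (VJ cs h X K) ≠ ⊥) : ∃ w : W, ∀ j ∈ J, ∃ k ∈ K, rep cs h w (sr j) = sr k := by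
  by_contra hcon
  push Not at hcon
  apply hK
  have key : ∀ v, av ρ (VJ cs h X K) v = 0 := by
    intro v
    have hv : v ∈ (⨆ g : Y, (fx ρ (VJ cs h X J)).map (ρ g)) := by
      rw [iSup_map_eq_top hρ hJ]
      exact Submodule.mem_top
    induction hv using Submodule.iSup_induction' with
    | zero => rw [map_zero]
    | add x y _ _ hx hy => rw [map_add, hx, hy, add_zero]
    | mem x v hv =>
      obtain ⟨v, hv, rfl⟩ := hv
      obtain ⟨a, ha, b, hb, w, g, hg, e, h1, h2⟩ := exists_min_rep₂ R hG K J x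
      have hb' := rho_mem_fx (PJ_le_normalizer_VJ R J hb) hv
      have h3 : av ρ (VJ cs h X K) (ρ g (ρ b v)) = 0 := by
        refine av_eq_zero R hg h1 h2 (hmin _ ?_) hb'
        obtain ⟨j, hj, hj'⟩ := hcon w
        refine ⟨fun i hi => hi.1, fun hsub => ?_⟩
        obtain ⟨-, k, hk, hjk⟩ := hsub hj
        exact hj' k hk hjk
      have hna := PJ_le_normalizer_VJ R K ha
      have h4 := rho_av_conj ρ (H := VJ cs h X K) (H' := VJ cs h X K) (g := a)
        (fun x => Subgroup.mem_normalizer_iff.1 hna x) (ρ g (ρ b v))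
      rw [h3, map_zero] at h4
      rw [e, map_mul, map_mul, Module.End.mul_apply, Module.End.mul_apply]
      exact h4.symm
  rw [eq_bot_iff]
  intro v hv
  rw [Submodule.mem_bot, ← av_of_mem hv]
  exact key v

omit R in
theorem VJ_empty : VJ cs h X (∅ : Set I) = RGD.Sup X (RGD.Pos cs h) := by
  apply le_antisymm (VJ_le_U _)
  refine RGD.Sup_le fun x hx => RGD.le_Sup ⟨hx.1, hx.2, ?_⟩
  by_contra hcon
  push Not at hcon
  exact hx.1.ne_zero (funext fun i => le_antisymm (hcon i (Set.notMem_empty i)) (hx.2 i))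

omit R in
theorem VU_eq_fx_VJ : VU cs h X ρ = fx ρ (VJ cs h X (∅ : Set I)) := by
  rw [VJ_empty]
  rfl

/-- **`V^U ≠ 0`** when two non conjugate rank one truncations do not vanish. -/
theorem VU_ne_bot [Finite W] (hG : GG cs h T X = ⊤) (hρ : ρ.IsIrreducible) {a b : I}
    (hno : ∀ w : W, rep cs h w (sr a) ≠ sr b) (ha : fx ρ (VJ cs h X {a}) ≠ ⊥) (hb : fx ρ (VJ cs h X {b}) ≠ ⊥) :
    VU cs h X ρ ≠ ⊥ := by
  intro h0
  obtain ⟨w, hw⟩ := exists_of_support R hG hρ ha (fun J' hJ' => by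
    have : J' = ∅ := by
      rcases Set.subset_singleton_iff_eq.1 hJ'.1 with h1 | h1
      · exact h1
      · exact absurd h1 (fun h => hJ'.2 (by rw [h]))
    rw [this, ← VU_eq_fx_VJ]
    exact h0) hb
  obtain ⟨k, hk, e⟩ := hw a rfl
  rw [Set.mem_singleton_iff.1 hk] at e
  exact hno w e

end rgd

end Cfsg.Agent.H985.VZ
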